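import Cfsg.Agent.H10.U6A.LData

set_option autoImplicit false
set_option linter.all false

namespace Cfsg.Agent.H10.U6A

open Cfsg.Agent.H35 Cfsg.Spor Cfsg.Agent.H10

theorem um_lvlA : allR (fun p => lvlOK t1687_pd um_lab 0 um_wsA 2 p) 3510 12 0 = true := by decide +kernel
theorem um_fixA : fixOK t1687_pd um_wsA [0] = true := by decide +kernel
theorem um_cntA : cntR (fun p => Nat.ble 1 (fld 16 (um_lab p) 0)) 3510 12 0 = 2816 := by decide +kernel
theorem um_lvlB : allR (fun p => lvlOK t1687_pd um_lab 2 um_wsB 6 p) 3510 12 0 = true := by decide +kernel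
theorem um_fixB : fixOK t1687_pd um_wsB [0] = true := by decide +kernel
theorem um_cntB : cntR (fun p => Nat.ble 1 (fld 16 (um_lab p) 2)) 3510 12 0 = 693 := by decide +kernel
def um_uA : List Fi22.Gen := [.b, .a]
def um_uB : List Fi22.Gen := [.b, .a, .c, .b]
theorem um_all : allR (fun p => Nat.beq p 0 || (Nat.ble 1 (fld 16 (um_lab p) 0) || Nat.ble 1 (fld 16 (um_lab p) 2))) 3510 12 0 = true := by decide +kernel
theorem um_uA_walk : t1687_pd.walk um_uA 0 = 2 := by decide +kernel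
theorem um_uB_walk : t1687_pd.walk um_uB 0 = 6 := by decide +kernel
theorem um_relA : allR (fun p => Nat.beq (t1687_pd.walk (([.a] ++ (um_uA.reverse ++ [.a] ++ um_uA)) ++ ([.a] ++ (um_uA.reverse ++ [.a] ++ um_uA)) ++ ([.a] ++ (um_uA.reverse ++ [.a] ++ um_uA))) p) p) 3510 12 0 = true := by decide +kernel
theorem um_relB : allR (fun p => Nat.beq (t1687_pd.walk (([.a] ++ (um_uB.reverse ++ [.a] ++ um_uB)) ++ ([.a] ++ (um_uB.reverse ++ [.a] ++ um_uB))) p) p) 3510 12 0 = true := by decide +kernel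
theorem um_tA_ne : t1687_pd.walk (um_uA.reverse ++ [.a] ++ um_uA) 0 ≠ t1687_pd.walk [.a] 0 := by decide +kernel
theorem um_tB_ne : t1687_pd.walk (um_uB.reverse ++ [.a] ++ um_uB) 1 ≠ t1687_pd.walk [.a] 1 := by decide +kernel

end Cfsg.Agent.H10.U6A
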